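import Mathlib
import Cfsg.Agent.Lib.Helper79.CS3.EndDefs

/-!
# CS3 (S4284), part [END], package [I3]: `|Q| = n`, `m ∣ n - 1`, and `P ∖ C_P(Q)` acts
fixed-point-freely on `Q` (CASE I)
-/

set_option autoImplicit false

namespace Cfsg.Agent.Lib.Helper3.CS3

open Cfsg.Agent.Lib.Helper81.CS3 Cfsg.Agent.Lib.Helper79.CS3

universe u

open scoped Pointwise in
/-- A complement `P` of the normal subgroup `Q` has order `|G : Q|`. -/
theorem card_compl_eq_index {G : Type u} [Group G] [Finite G] (Q P : Subgroup G) (hQn : Q.Normal)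
    (hinf : Q ⊓ P = ⊥) (hsup : Q ⊔ P = ⊤) : Nat.card P = Q.index := by
  have h1 : (Q : Set G) * (P : Set G) = Set.univ := by
    rw [← Subgroup.normal_mul, hsup, Subgroup.coe_top]
  have h2 : Subgroup.IsComplement' Q P :=
    Subgroup.isComplement'_of_disjoint_and_mul_eq_univ (disjoint_iff.2 hinf) h1
  have h3 := h2.card_mul_card
  have h4 := Subgroup.card_mul_index Q
  have h5 : 0 < Nat.card Q := Nat.card_pos
  exact Nat.eq_of_mul_eq_mul_left h5 (h3.trans h4.symm)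

/-- [I3] -/
theorem pkgI3_of (hI1 : PkgI1.{u}) (hDF : PkgDF.{u}) (hOrb : PkgOrb.{u}) (hE4 : PkgE4.{u})
    (hE5a : PkgE5a.{u}) (hE0 : PkgE0.{u}) : PkgI3.{u} := by
  intro G _ _ m n Q P p hS hC
  obtain ⟨hidx, -, hI1c, -⟩ := hI1 m n Q P p hS hC
  have hS0 := hS.s0
  have hQn : Q.Normal := hS0.qn
  obtain ⟨hcop, -⟩ := hE0 m n hS0.hyp Q hQn hS0.qm hS0.qi
  have hcardP : Nat.card P = Q.index := card_compl_eq_index Q P hQn hS0.inf hS0.sup
  have hQZ : Q ⊓ Subgroup.center G = ⊥ :=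
    hDF Q P hS0.hyp.1 hQn hS0.qc (by rw [hcardP]; exact hcop) hS0.inf hS0.sup
  have hnc : ∀ y ∈ Q, y ≠ 1 → y ∉ Subgroup.center G := by
    intro y hy hy1 hyZ
    have h1 : y ∈ Q ⊓ Subgroup.center G := ⟨hy, hyZ⟩
    rw [hQZ, Subgroup.mem_bot] at h1
    exact hy1 h1
  have hfix : ∀ g ∈ P, g ∉ Subgroup.centralizer (Q : Set G) → ∀ y ∈ Q, g * y = y * g → y = 1 := by
    intro g hg hgC y hy hgy
    by_contra hy1
    exact hgC (hI1c y hy (hnc y hy hy1) g hg hgy)
  obtain ⟨hE4a, -⟩ := hE4 m n Q P hS0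
  obtain ⟨w, hwP, hwC⟩ := SetLike.not_le_iff_exists.1 hE4a
  obtain ⟨-, hrelQ, -⟩ := (hE5a m n Q P hS0 w hwP).2 hwC
  have hcardQ : Nat.card Q = n := by
    have h1 : Subgroup.centralizer ({w} : Set G) ⊓ Q = ⊥ := by
      rw [Subgroup.eq_bot_iff_forall]
      intro y hy
      have h2 := Subgroup.mem_centralizer_singleton_iff.1 hy.1
      exact hfix w hwP hwC y hy.2 h2.symm
    rw [← hrelQ, ← Subgroup.inf_relIndex_right, h1, Subgroup.relIndex_bot_left]
  refine ⟨hcardQ, ?_, hfix⟩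
  have h3 := hOrb Q P (Subgroup.centralizer (Q : Set G)) hQn (by
    intro y hy hy1 g hg
    constructor
    · intro hgy
      exact hI1c y hy (hnc y hy hy1) g hg hgy
    · intro hgC
      exact ((Subgroup.mem_centralizer_iff.1 hgC) y hy).symm)
  rw [hidx, hcardQ] at h3
  exact h3

end Cfsg.Agent.Lib.Helper3.CS3
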