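import Mathlib
import Cfsg.Agent.Lib.Helper79.CS3.EndDefs

/-!
# CS3 (S4284), part [END], package [I4A]: `P / C_P(Q)` has exponent `p`
-/

set_option autoImplicit false

namespace Cfsg.Agent.Lib.Helper3.CS3

open Cfsg.Agent.Lib.Helper81.CS3 Cfsg.Agent.Lib.Helper79.CS3

universe u

/-- If `z = a w a⁻¹ w⁻¹` commutes with `a` and `w`, then `a ^ k w a ^ (-k) = z ^ k w`. -/
theorem conj_pow_of_comm {G : Type u} [Group G] (a w z : G) (hz : z = a * w * a⁻¹ * w⁻¹)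
    (hza : Commute z a) (k : ℕ) : a ^ k * w * (a ^ k)⁻¹ = z ^ k * w := by
  induction k with
  | zero => simp
  | succ k ih =>
    have h1 : a ^ (k + 1) * w * (a ^ (k + 1))⁻¹ = a * (a ^ k * w * (a ^ k)⁻¹) * a⁻¹ := by
      rw [pow_succ']
      group
    have h2 : a * w * a⁻¹ = z * w := by
      rw [hz]
      group
    have h3 : a * z ^ k = z ^ k * a := ((hza.pow_left k).eq).symm
    rw [h1, ih]
    calc a * (z ^ k * w) * a⁻¹ = (a * z ^ k) * w * a⁻¹ := by group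
      _ = z ^ k * (a * w * a⁻¹) := by rw [h3]; group
      _ = z ^ (k + 1) * w := by rw [h2, pow_succ, mul_assoc]

/-- If `z = a w a⁻¹ w⁻¹` commutes with `a` and `w`, then `w ^ k a w ^ (-k) = z ^ (-k) a`. -/
theorem conj_pow_of_comm' {G : Type u} [Group G] (a w z : G) (hz : z = a * w * a⁻¹ * w⁻¹)
    (hzw : Commute z w) (k : ℕ) : w ^ k * a * (w ^ k)⁻¹ = (z ^ k)⁻¹ * a := by
  induction k with
  | zero => simp
  | succ k ih =>
    have h1 : w ^ (k + 1) * a * (w ^ (k + 1))⁻¹ = w * (w ^ k * a * (w ^ k)⁻¹) * w⁻¹ := by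
      rw [pow_succ']
      group
    have h2 : w * a * w⁻¹ = z⁻¹ * a := by
      rw [hz]
      group
    have h3 : w * (z ^ k)⁻¹ = (z ^ k)⁻¹ * w := (((hzw.pow_left k).inv_left).eq).symm
    rw [h1, ih]
    calc w * ((z ^ k)⁻¹ * a) * w⁻¹ = (w * (z ^ k)⁻¹) * a * w⁻¹ := by group
      _ = (z ^ k)⁻¹ * (w * a * w⁻¹) := by rw [h3]; group
      _ = (z ^ (k + 1))⁻¹ * a := by rw [h2, pow_succ', mul_inv_rev, mul_assoc]

/-- [I4A] -/
theorem pkgI4a_of (hI1 : PkgI1.{u}) (hE6 : PkgE6.{u}) (hPCen : PkgPCen.{u}) : PkgI4a.{u} := by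
  intro G _ _ m n Q P p hS hC w hw
  obtain ⟨-, -, -, hI1d⟩ := hI1 m n Q P p hS hC
  have hQn : Q.Normal := hS.s0.qn
  have hCn : (Subgroup.centralizer (Q : Set G)).Normal := Subgroup.normal_centralizer
  obtain ⟨a0, ha0P, ha0C, ha0Z⟩ := hC
  have hnc : ∃ x ∈ P ⊓ Subgroup.centralizer (Q : Set G), ∃ g ∈ P, x * g ≠ g * x := by
    by_contra hcon
    push Not at hcon
    exact ha0Z (hE6 m n Q P p hS a0 ha0P (fun y hy => hcon a0 ⟨ha0P, ha0C⟩ y hy))
  obtain ⟨a, haN, ⟨g0, hg0P, hg0⟩, hcomm, hap⟩ :=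
    hPCen p P (P ⊓ Subgroup.centralizer (Q : Set G)) hS.pp hS.pg inf_le_left
      (fun g hg x hx => ⟨P.mul_mem (P.mul_mem hg hx.1) (P.inv_mem hg), hCn.conj_mem x hx.2 g⟩) hnc
  have haP : a ∈ P := haN.1
  have haC : a ∈ Subgroup.centralizer (Q : Set G) := haN.2
  have haZ : a ∉ Subgroup.center G := by
    intro h
    apply hg0
    exact ((Subgroup.mem_center_iff.1 h) g0).symm
  obtain ⟨z, hz⟩ : ∃ z : G, z = a * w * a⁻¹ * w⁻¹ := ⟨_, rfl⟩
  have hzc : ∀ h ∈ P, z * h = h * z := by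
    intro h hh
    rw [hz]
    exact hcomm w hw h hh
  have hzw : Commute z w := hzc w hw
  have hza : Commute z a := hzc a haP
  have hzp : z ^ p = 1 := by
    have h1 := conj_pow_of_comm a w z hz hza p
    have h2 : a ^ p * w * (a ^ p)⁻¹ = w := by
      rw [hap w hw]
      group
    rw [h2] at h1
    exact (mul_eq_right.1 h1.symm)
  have h3 := conj_pow_of_comm' a w z hz hzw p
  rw [hzp, inv_one, one_mul] at h3
  have h4 : w ^ p * a = a * w ^ p := by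
    calc w ^ p * a = (w ^ p * a * (w ^ p)⁻¹) * w ^ p := by group
      _ = a * w ^ p := by rw [h3]
  exact hI1d a haP haC haZ (w ^ p) (P.pow_mem hw p) h4

end Cfsg.Agent.Lib.Helper3.CS3
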