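import Mathlib
import Cfsg.Agent.Lib.Helper79.CS3.EndDefs

/-!
# CS3 (S4284), part [END], package [I4B]: `m = p` in CASE I
-/

set_option autoImplicit false

namespace Cfsg.Agent.Lib.Helper3.CS3

open Cfsg.Agent.Lib.Helper81.CS3 Cfsg.Agent.Lib.Helper79.CS3

universe u

/-- In a group of exponent `p`, if `hb ∉ ⟨gb⟩` and `gb ≠ 1`, then `gb ^ i * hb ^ k = 1` forces
`p ∣ i` and `p ∣ k`. -/
theorem indep_of_exp {K : Type u} [Group K] (p : ℕ) (hp : p.Prime) (hexpK : ∀ k : K, k ^ p = 1)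
    (gb hb : K) (hgb1 : gb ≠ 1) (hhb : hb ∉ Subgroup.zpowers gb) (i k : ℕ)
    (hik : ¬ (p ∣ i ∧ p ∣ k)) : gb ^ i * hb ^ k ≠ 1 := by
  have : Fact p.Prime := ⟨hp⟩
  have hordg : orderOf gb = p := orderOf_eq_prime (hexpK gb) hgb1
  intro heq
  by_cases hk : p ∣ k
  · obtain ⟨c, rfl⟩ := hk
    rw [pow_mul, hexpK, one_pow, mul_one] at heq
    have h1 : p ∣ i := by
      rw [← hordg]
      exact orderOf_dvd_of_pow_eq_one heq
    exact hik ⟨h1, dvd_mul_right p c⟩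
  · apply hhb
    have h1 : hb ^ k ∈ Subgroup.zpowers gb := by
      have h0 : hb ^ k = (gb ^ i)⁻¹ := eq_inv_of_mul_eq_one_right heq
      rw [h0]
      exact (Subgroup.zpowers gb).inv_mem
        ((Subgroup.zpowers gb).pow_mem (Subgroup.mem_zpowers gb) i)
    have hcop : Nat.Coprime k p := Nat.Coprime.symm ((Nat.Prime.coprime_iff_not_dvd hp).2 hk)
    have h2 : (1 : ℤ) = (k : ℤ) * Nat.gcdA k p + (p : ℤ) * Nat.gcdB k p := by
      have h0 := Nat.gcd_eq_gcd_ab k p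
      rw [hcop.gcd_eq_one] at h0
      exact_mod_cast h0
    have h3 : hb = (hb ^ k) ^ (Nat.gcdA k p) * (hb ^ p) ^ (Nat.gcdB k p) := by
      rw [← zpow_natCast, ← zpow_natCast, ← zpow_mul, ← zpow_mul, ← zpow_add, ← h2, zpow_one]
    rw [h3, hexpK, one_zpow, mul_one]
    exact (Subgroup.zpowers gb).zpow_mem h1 _

/-- [I4B] -/
theorem pkgI4b_of (hI1 : PkgI1.{u}) (hI3 : PkgI3.{u}) (hI4a : PkgI4a.{u}) (hFPF : PkgFPF.{u}) :
    PkgI4b.{u} := by
  intro G _ _ m n Q P p hS hC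
  obtain ⟨hidx, -, -, -⟩ := hI1 m n Q P p hS hC
  obtain ⟨hQcard, -, hfix⟩ := hI3 m n Q P p hS hC
  have hexp := hI4a m n Q P p hS hC
  have hp : p.Prime := hS.pp
  obtain ⟨j, hj⟩ := hS.pm
  obtain ⟨-, hm1, hn1, -, -⟩ := hS.s0.hyp
  have hQn : Q.Normal := hS.s0.qn
  have hCn : (Subgroup.centralizer (Q : Set G)).Normal := Subgroup.normal_centralizer
  by_contra hne
  have hj2 : 2 ≤ j := by
    rcases j with _ | _ | j
    · simp at hj
      omega
    · simp at hj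
      exact absurd hj hne
    · omega
  obtain ⟨A, hA⟩ : ∃ A : Subgroup ↥P,
      A = (Subgroup.centralizer (Q : Set G)).subgroupOf P := ⟨_, rfl⟩
  have hAn : A.Normal := by
    rw [hA]
    infer_instance
  have hcardK : Nat.card (↥P ⧸ A) = p ^ j := by
    rw [← Subgroup.index_eq_card, hA, ← hj]
    exact hidx
  have hpK : IsPGroup p (↥P ⧸ A) := IsPGroup.of_card hcardK
  have hnt : Nontrivial (↥P ⧸ A) := by
    apply (Finite.one_lt_card_iff_nontrivial).1
    rw [hcardK]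
    exact Nat.one_lt_pow (by omega) hp.one_lt
  have : Fact p.Prime := ⟨hp⟩
  have hcnt : Nontrivial (Subgroup.center (↥P ⧸ A)) := hpK.center_nontrivial
  obtain ⟨⟨gb, hgb⟩, hgb1⟩ := exists_ne (1 : Subgroup.center (↥P ⧸ A))
  have hgb1' : gb ≠ 1 := fun h => hgb1 (Subtype.ext h)
  have hexpK : ∀ k : ↥P ⧸ A, k ^ p = 1 := by
    intro k
    obtain ⟨w, rfl⟩ := QuotientGroup.mk_surjective k
    rw [← QuotientGroup.mk_pow, QuotientGroup.eq_one_iff, hA, Subgroup.mem_subgroupOf,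
      Subgroup.coe_pow]
    exact hexp w.1 w.2
  have hordg : orderOf gb = p := orderOf_eq_prime (hexpK gb) hgb1'
  obtain ⟨hb, hhb⟩ : ∃ hb : ↥P ⧸ A, hb ∉ Subgroup.zpowers gb := by
    by_contra hcon
    push Not at hcon
    have htop : Subgroup.zpowers gb = ⊤ := (Subgroup.eq_top_iff' _).2 hcon
    have h1 : Nat.card (Subgroup.zpowers gb) = p := by rw [Nat.card_zpowers, hordg]
    rw [htop, Subgroup.card_top, hcardK] at h1
    have h2 : p ^ 2 ≤ p ^ j := Nat.pow_le_pow_right hp.pos hj2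
    have h3 : p < p ^ 2 := by nlinarith [hp.one_lt]
    omega
  have hkey := indep_of_exp p hp hexpK gb hb hgb1' hhb
  obtain ⟨g', rfl⟩ := QuotientGroup.mk_surjective gb
  obtain ⟨h', rfl⟩ := QuotientGroup.mk_surjective hb
  have hcomm : ((h' * g')⁻¹ * (g' * h') : ↥P) ∈ A := by
    rw [← QuotientGroup.eq_one_iff, QuotientGroup.mk_mul, QuotientGroup.mk_inv,
      QuotientGroup.mk_mul, QuotientGroup.mk_mul]
    have h0 := (Subgroup.mem_center_iff.1 hgb) (QuotientGroup.mk h')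
    rw [h0]
    group
  have hcommC : ((h' : G) * (g' : G))⁻¹ * ((g' : G) * (h' : G)) ∈
      Subgroup.centralizer (Q : Set G) := by
    rw [hA, Subgroup.mem_subgroupOf] at hcomm
    simpa using hcomm
  have hpm : p ∣ m := by
    rw [hj]
    exact dvd_pow_self p (by omega)
  apply hFPF Q ⊥ p (g' : G) (h' : G) hp hS.s0.qc ?_ bot_le ?_ ?_ ?_ ?_ ?_ ?_ ?_
  · intro hpQ
    have h1 : p ∣ Nat.gcd (Nat.card Q) m := Nat.dvd_gcd hpQ hpm
    rw [hS.s0.qm.gcd_eq_one] at h1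
    exact hp.one_lt.ne' (Nat.dvd_one.1 h1)
  · intro hbot
    rw [← hbot, Subgroup.card_bot] at hQcard
    omega
  · intro y hy
    exact hQn.conj_mem y hy _
  · intro y hy
    exact hQn.conj_mem y hy _
  · intro y hy
    exact ((Subgroup.mem_centralizer_iff.1 (hexp g'.1 g'.2)) y hy).symm
  · intro y hy
    exact ((Subgroup.mem_centralizer_iff.1 (hexp h'.1 h'.2)) y hy).symm
  · intro y hy
    have h1 := (Subgroup.mem_centralizer_iff.1 hcommC) y hy
    obtain ⟨c, hc⟩ : ∃ c : G, c = ((h' : G) * (g' : G))⁻¹ * ((g' : G) * (h' : G)) := ⟨_, rfl⟩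
    rw [← hc] at h1
    have h2 : (g' : G) * (h' : G) = ((h' : G) * (g' : G)) * c := by
      rw [hc]
      group
    rw [h2]
    calc (h' : G) * (g' : G) * c * y * ((h' : G) * (g' : G) * c)⁻¹
        = (h' : G) * (g' : G) * (c * y) * c⁻¹ * ((h' : G) * (g' : G))⁻¹ := by group
      _ = (h' : G) * (g' : G) * (y * c) * c⁻¹ * ((h' : G) * (g' : G))⁻¹ := by rw [h1]
      _ = (h' : G) * (g' : G) * y * ((h' : G) * (g' : G))⁻¹ := by group
  · intro i k hik y hy hcomm'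
    rw [Subgroup.mem_bot]
    have hmemP : (g' : G) ^ i * (h' : G) ^ k ∈ P :=
      P.mul_mem (P.pow_mem g'.2 i) (P.pow_mem h'.2 k)
    refine hfix _ hmemP ?_ y hy hcomm'
    intro hmemC
    apply hkey i k hik
    rw [← QuotientGroup.mk_pow, ← QuotientGroup.mk_pow, ← QuotientGroup.mk_mul,
      QuotientGroup.eq_one_iff, hA, Subgroup.mem_subgroupOf]
    simpa using hmemC

end Cfsg.Agent.Lib.Helper3.CS3
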